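import Cfsg.Agent.Screen.CosetEnum.SuzU43.Data

/-!
# Checking the table
-/

set_option autoImplicit false
set_option maxRecDepth 20000

namespace Cfsg.Agent.Screen.CosetEnum.SuzU43

open Cfsg.Agent.Screen.CosetEnum

set_option Elab.async false

theorem fcheck24 : blocks tbl.toCert 40 960 = true := by decide +kernel

theorem fcheck25 : blocks tbl.toCert 40 1000 = true := by decide +kernel

theorem fcheck26 : blocks tbl.toCert 40 1040 = true := by decide +kernel

theorem fcheck27 : blocks tbl.toCert 40 1080 = true := by decide +kernel

theorem fcheck28 : blocks tbl.toCert 40 1120 = true := by decide +kernel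

theorem fcheck29 : blocks tbl.toCert 40 1160 = true := by decide +kernel

theorem fcheck30 : blocks tbl.toCert 40 1200 = true := by decide +kernel

theorem fcheck31 : blocks tbl.toCert 40 1240 = true := by decide +kernel

theorem fcheck32 : blocks tbl.toCert 40 1280 = true := by decide +kernel

theorem fcheck33 : blocks tbl.toCert 40 1320 = true := by decide +kernel

theorem fcheck34 : blocks tbl.toCert 40 1360 = true := by decide +kernel

theorem fcheck35 : blocks tbl.toCert 40 1400 = true := by decide +kernel

theorem fcheck36 : blocks tbl.toCert 40 1440 = true := by decide +kernel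

theorem fcheck37 : blocks tbl.toCert 40 1480 = true := by decide +kernel

theorem fcheck38 : blocks tbl.toCert 40 1520 = true := by decide +kernel

theorem fcheck39 : blocks tbl.toCert 40 1560 = true := by decide +kernel

theorem fcheck40 : blocks tbl.toCert 40 1600 = true := by decide +kernel

theorem fcheck41 : blocks tbl.toCert 40 1640 = true := by decide +kernel

theorem fcheck42 : blocks tbl.toCert 40 1680 = true := by decide +kernel

theorem fcheck43 : blocks tbl.toCert 40 1720 = true := by decide +kernel

theorem fcheck44 : blocks tbl.toCert 40 1760 = true := by decide +kernel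

theorem fcheck45 : blocks tbl.toCert 40 1800 = true := by decide +kernel

theorem fcheck46 : blocks tbl.toCert 40 1840 = true := by decide +kernel

theorem fcheck47 : blocks tbl.toCert 40 1880 = true := by decide +kernel

end Cfsg.Agent.Screen.CosetEnum.SuzU43
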