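import Cfsg.Agent.Screen.CosetEnum.SuzU43.FCheck1

/-!
# Checking the table
-/

set_option autoImplicit false
set_option maxRecDepth 20000

namespace Cfsg.Agent.Screen.CosetEnum.SuzU43

open Cfsg.Agent.Screen.CosetEnum

set_option Elab.async false

theorem fcheck72 : blocks tbl.toCert 40 2880 = true := by decide +kernel

theorem fcheck73 : blocks tbl.toCert 40 2920 = true := by decide +kernel

theorem fcheck74 : blocks tbl.toCert 40 2960 = true := by decide +kernel

theorem fcheck75 : blocks tbl.toCert 40 3000 = true := by decide +kernel

theorem fcheck76 : blocks tbl.toCert 40 3040 = true := by decide +kernel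

theorem fcheck77 : blocks tbl.toCert 40 3080 = true := by decide +kernel

theorem fcheck78 : blocks tbl.toCert 40 3120 = true := by decide +kernel

theorem fcheck79 : blocks tbl.toCert 40 3160 = true := by decide +kernel

theorem fcheck80 : blocks tbl.toCert 40 3200 = true := by decide +kernel

theorem fcheck81 : blocks tbl.toCert 40 3240 = true := by decide +kernel

theorem fcheck82 : blocks tbl.toCert 40 3280 = true := by decide +kernel

theorem fcheck83 : blocks tbl.toCert 40 3320 = true := by decide +kernel

theorem fcheck84 : blocks tbl.toCert 40 3360 = true := by decide +kernel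

theorem fcheck85 : blocks tbl.toCert 40 3400 = true := by decide +kernel

theorem fcheck86 : blocks tbl.toCert 40 3440 = true := by decide +kernel

theorem fcheck87 : blocks tbl.toCert 40 3480 = true := by decide +kernel

theorem fcheck88 : blocks tbl.toCert 40 3520 = true := by decide +kernel

theorem fcheck89 : blocks tbl.toCert 40 3560 = true := by decide +kernel

theorem fcheck90 : blocks tbl.toCert 40 3600 = true := by decide +kernel

theorem fcheck91 : blocks tbl.toCert 40 3640 = true := by decide +kernel

theorem fcheck92 : blocks tbl.toCert 40 3680 = true := by decide +kernel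

theorem fcheck93 : blocks tbl.toCert 40 3720 = true := by decide +kernel

theorem fcheck94 : blocks tbl.toCert 40 3760 = true := by decide +kernel

theorem fcheck95 : blocks tbl.toCert 40 3800 = true := by decide +kernel

end Cfsg.Agent.Screen.CosetEnum.SuzU43
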