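import Cfsg.Agent.Screen.CosetEnum.SuzU43.RCheck0

/-!
# Checking the table
-/

set_option autoImplicit false
set_option maxRecDepth 20000

namespace Cfsg.Agent.Screen.CosetEnum.SuzU43

open Cfsg.Agent.Screen.CosetEnum

set_option Elab.async false

theorem rcheck48 : tbl.rows 150 7200 = true := by decide +kernel

theorem rcheck49 : tbl.rows 150 7350 = true := by decide +kernel

theorem rcheck50 : tbl.rows 150 7500 = true := by decide +kernel

theorem rcheck51 : tbl.rows 150 7650 = true := by decide +kernel

theorem rcheck52 : tbl.rows 150 7800 = true := by decide +kernel

theorem rcheck53 : tbl.rows 150 7950 = true := by decide +kernel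

theorem rcheck54 : tbl.rows 150 8100 = true := by decide +kernel

theorem rcheck55 : tbl.rows 150 8250 = true := by decide +kernel

theorem rcheck56 : tbl.rows 150 8400 = true := by decide +kernel

theorem rcheck57 : tbl.rows 150 8550 = true := by decide +kernel

theorem rcheck58 : tbl.rows 150 8700 = true := by decide +kernel

theorem rcheck59 : tbl.rows 150 8850 = true := by decide +kernel

theorem rcheck60 : tbl.rows 150 9000 = true := by decide +kernel

theorem rcheck61 : tbl.rows 150 9150 = true := by decide +kernel

theorem rcheck62 : tbl.rows 150 9300 = true := by decide +kernel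

theorem rcheck63 : tbl.rows 150 9450 = true := by decide +kernel

theorem rcheck64 : tbl.rows 150 9600 = true := by decide +kernel

theorem rcheck65 : tbl.rows 150 9750 = true := by decide +kernel

theorem rcheck66 : tbl.rows 150 9900 = true := by decide +kernel

theorem rcheck67 : tbl.rows 150 10050 = true := by decide +kernel

theorem rcheck68 : tbl.rows 150 10200 = true := by decide +kernel

theorem rcheck69 : tbl.rows 150 10350 = true := by decide +kernel

theorem rcheck70 : tbl.rows 150 10500 = true := by decide +kernel

theorem rcheck71 : tbl.rows 150 10650 = true := by decide +kernel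

end Cfsg.Agent.Screen.CosetEnum.SuzU43
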