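import Cfsg.Agent.Screen.CosetEnum.SuzU43.RCheck4

/-!
# Checking the table
-/

set_option autoImplicit false
set_option maxRecDepth 20000

namespace Cfsg.Agent.Screen.CosetEnum.SuzU43

open Cfsg.Agent.Screen.CosetEnum

set_option Elab.async false

theorem rcheck144 : tbl.rows 150 21600 = true := by decide +kernel

theorem rcheck145 : tbl.rows 150 21750 = true := by decide +kernel

theorem rcheck146 : tbl.rows 150 21900 = true := by decide +kernel

theorem rcheck147 : tbl.rows 150 22050 = true := by decide +kernel

theorem rcheck148 : tbl.rows 150 22200 = true := by decide +kernel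

theorem rcheck149 : tbl.rows 150 22350 = true := by decide +kernel

theorem rcheck150 : tbl.rows 150 22500 = true := by decide +kernel

theorem rcheck151 : tbl.rows 150 22650 = true := by decide +kernel

theorem rcheck152 : tbl.rows 80 22800 = true := by decide +kernel

end Cfsg.Agent.Screen.CosetEnum.SuzU43
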